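import Cfsg.Agent.H35.T1680.PChk0

set_option autoImplicit false
set_option linter.all false

namespace Cfsg.Agent.H35

theorem t1680_pall : ∀ p, p < 1782 → t1680_pf p = true := by
  apply allR_blocks t1680_pf 1782 10 2 _ (by decide)
  intro k hk
  interval_cases k
  · exact t1680_pchk_0
  · exact t1680_pchk_1

theorem t1680_psub : t1680_pd.subOK t1680_sw = true := by decide +kernel

end Cfsg.Agent.H35
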