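import Cfsg.Agent.H35.T1680.RTab

set_option autoImplicit false
set_option linter.all false

namespace Cfsg.Agent.H35

theorem t1680_rchk_2 : allR t1680_rf 8031 11 (2 * 2 ^ 11) = true := by decide +kernel
theorem t1680_rchk_3 : allR t1680_rf 8031 11 (3 * 2 ^ 11) = true := by decide +kernel

end Cfsg.Agent.H35
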