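import Cfsg.Agent.H35.T1680.RChk0
import Cfsg.Agent.H35.T1680.RChk1

set_option autoImplicit false
set_option linter.all false

namespace Cfsg.Agent.H35

theorem t1680_rall : ∀ p, p < 8031 → t1680_rf p = true := by
  apply allR_blocks t1680_rf 8031 11 4 _ (by decide)
  intro k hk
  interval_cases k
  · exact t1680_rchk_0
  · exact t1680_rchk_1
  · exact t1680_rchk_2
  · exact t1680_rchk_3

theorem t1680_circ_ok : circChk (fullW suz_rws suz_prels) t1680_circT 0 t1680_ccert = true := by decide +kernel
theorem t1680_hc_ok : allR (fun c => hcChk t1680_rsw t1680_hc1T t1680_hc2T c) 6 3 0 = true := by decide +kernel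
theorem t1680_h0 : RData.aord (t1680_rd.ent 0 1) = 0 := by decide +kernel

end Cfsg.Agent.H35
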