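import Cfsg.Agent.H35.T1680.PTab

set_option autoImplicit false
set_option linter.all false

namespace Cfsg.Agent.H35

theorem t1680_pchk_0 : allR t1680_pf 1782 10 (0 * 2 ^ 10) = true := by decide +kernel
theorem t1680_pchk_1 : allR t1680_pf 1782 10 (1 * 2 ^ 10) = true := by decide +kernel

end Cfsg.Agent.H35
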